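import Cfsg.Agent.H629.CY.Defs

/-!
# S4829, sporadic rows: tools (helper136)

* `WitOR.congr`, `witOR_of_cent`, `witOR_of_dvd`, `witOR_of_sum`;
* `mem_of_ty` : a constituent of the permutation character of a scheme (orbitals coloured by `ty`) given by the
  spherical function `u`, with `kᵢ (u₀ - uᵢ) ∈ p u₀ ℤ` for every colour `i`, is in the principal block.
-/

set_option autoImplicit false
set_option linter.unusedSectionVars false

namespace Cfsg.Agent.H136.CY

open Cfsg Subgroup Cfsg.Agent.Blocks Cfsg.Agent.H145.BR Cfsg.Agent.H493.RatB Cfsg.Agent.H629.CY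
open Cfsg.Agent.Characters.Core

universe u v w

theorem witOR_congr {p : ℕ} {S : Type u} [Group S] [Finite S] {T : Type v} [Group T]
    (e : S ≃* T) (h : WitOR p T) : WitOR p S := by
  intro M hM
  obtain ⟨θ, h1, h2, h3, h3', h4⟩ := h M hM
  have hd : charDegree (fun x : S => (θ : T → ℂ) (e x)) = charDegree (θ : T → ℂ) := by
    rw [Blocks.Basic.charDegree_def, Blocks.Basic.charDegree_def, map_one]
  exact ⟨⟨_, isIrr_comp (e : S →* T) e.surjective θ.2⟩, mem_principalBlock_comp e h1, fun h5 => h2 (by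
    funext y
    obtain ⟨x, rfl⟩ := e.surjective y
    exact congrFun h5 x), (by
    show ¬ p ∣ charDegree (fun x : S => (θ : T → ℂ) (e x))
    rwa [hd]), (by
    show Odd (charDegree (fun x : S => (θ : T → ℂ) (e x)))
    rwa [hd]), fun g => h4 (e g)⟩

theorem witOR_of_cent {S : Type u} [Group S] [Finite S] {p : ℕ} [hp : Fact p.Prime] {U : Subgroup S}
    (hU : IsPGroup p U) (hC : IsPGroup p (centralizer (U : Set S))) (θ : IrrCharacter S)
    (hne : (θ : S → ℂ) ≠ fun _ => 1) (hd : ¬ p ∣ charDegree (θ : S → ℂ)) (ho : Odd (charDegree (θ : S → ℂ)))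
    (hr : RatV (θ : S → ℂ)) : WitOR p S :=
  fun _ hM => ⟨θ, H684.Principal.mem_of_not_dvd hM hU hC θ hd, hne, hd, ho, hr⟩

theorem witOR_of_dvd {S : Type u} [Group S] [Fintype S] {p : ℕ} [hp : Fact p.Prime] {X : Type v} [Finite X]
    [MulAction S X] [MulAction.IsPretransitive S X] [Nonempty X] (hd : p ∣ Nat.card X)
    (hr : ∀ χ : IrrCharacter S, classInner (permC S X) (χ : S → ℂ) ≠ 0 → ¬ p ∣ charDegree (χ : S → ℂ) →
      (χ : S → ℂ) ≠ (fun _ => 1) → Odd (charDegree (χ : S → ℂ)) ∧ RatV (χ : S → ℂ)) : WitOR p S := by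
  intro M hM
  obtain ⟨χ, h1, h2, h3, h4⟩ := exists_of_dvd (G := S) hM (X := X) hd
  exact ⟨χ, h1, h2, h3, (hr χ h4 h3 h2).1, (hr χ h4 h3 h2).2⟩

/-- from a decomposition of the permutation character -/
theorem witOR_of_sum {S : Type u} [Group S] [Fintype S] {p : ℕ} [hp : Fact p.Prime] {X : Type v} [Finite X]
    [MulAction S X] [MulAction.IsPretransitive S X] [Nonempty X] (hd : p ∣ Nat.card X) {ι : Type w} (s : Finset ι)
    (a : ι → ℕ) (χ : ι → IrrCharacter S) (hs : ∀ g : S, permC S X g = 1 + ∑ i ∈ s, (a i : ℂ) * (χ i : S → ℂ) g)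
    (hr : ∀ i ∈ s, ¬ p ∣ charDegree (χ i : S → ℂ) → Odd (charDegree (χ i : S → ℂ)) ∧ RatV (χ i : S → ℂ)) :
    WitOR p S := by
  classical
  refine witOR_of_dvd hd fun ξ h1 h2 h3 => ?_
  by_contra hne
  apply h1
  have e : permC S X = (fun _ => (1 : ℂ)) + ∑ i ∈ s, (a i : ℂ) • (χ i : S → ℂ) := by
    funext g
    rw [hs g]
    simp only [Pi.add_apply, Finset.sum_apply, Pi.smul_apply, smul_eq_mul]
  rw [e, classInner_add_left, classInner_sum_left]
  have h4 : classInner (fun _ : S => (1 : ℂ)) (ξ : S → ℂ) = 0 :=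
    classInner_irr_ne (H893.Sd.one S).2 ξ.2 (fun h => h3 h.symm)
  rw [h4, zero_add]
  refine Finset.sum_eq_zero fun i hi => ?_
  rw [classInner_smul_left, classInner_irr_ne (χ i).2 ξ.2, mul_zero]
  intro h5
  apply hne
  rw [← h5]
  refine hr i hi ?_
  rw [h5]
  exact h2

/-! ### schemes -/

section scheme

variable {G : Type u} [Group G] [Finite G] {V : Type v} [Fintype V] [DecidableEq V] [MulAction G V] {m : ℕ}

/-- **A constituent of a permutation character in the principal block**: the spherical function `u` is congruent to the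
trivial one. -/
theorem mem_of_ty (ty : V → V → Fin m) {i0 : Fin m} (h0 : ∀ x y, ty x y = i0 ↔ x = y)
    (hinv : ∀ (g : G) x y, ty (g • x) (g • y) = ty x y)
    (htr : ∀ x y x' y', ty x y = ty x' y' → ∃ g : G, g • x = x' ∧ g • y = y')
    {p : ℕ} [hp : Fact p.Prime] {M : Ideal AlgInt} (hM : IsPModular p M) (χ : IrrCharacter G) (c0 : ℂ) (u : Fin m → ℤ)
    (hχ : ∀ g : G, (χ : G → ℂ) g = c0 * ∑ x, ((u (ty x (g • x)) : ℤ) : ℂ)) (x0 : V) (q : Fin m → ℤ)
    (hq : ∀ i, ((Finset.univ.filter fun z => ty x0 z = i).card : ℤ) * (u i0 - u i) = p * q i * u i0) :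
    χ ∈ principalBlock M G := by
  classical
  have := Fintype.ofFinite G
  intro g
  let C : Finset G := Finset.univ.filter fun y => IsConj g y
  have hC : ((Subgroup.centralizer ({g} : Set G)).index : ℂ) = ∑ y ∈ C, 1 := by
    rw [H684.Principal.index_centralizer_eq, Nat.card_eq_fintype_card, Fintype.card_subtype, Finset.sum_const, nsmul_eq_mul,
      mul_one]
  have hχ1 : (χ : G → ℂ) 1 ≠ 0 := Blocks.Basic.irr_one_ne_zero χ.2
  have e1 : (χ : G → ℂ) 1 = c0 * (Fintype.card V * ((u i0 : ℤ) : ℂ)) := by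
    rw [hχ 1]
    congr 1
    have h2 : ∀ x ∈ (Finset.univ : Finset V), ((u (ty x ((1 : G) • x)) : ℤ) : ℂ) = ((u i0 : ℤ) : ℂ) := by
      intro x _
      rw [one_smul, (h0 x x).2 rfl]
    rw [Finset.sum_congr rfl h2, Finset.sum_const, nsmul_eq_mul, Finset.card_univ]
  have hc0 : c0 ≠ 0 := fun h => hχ1 (by rw [e1, h, zero_mul])
  have hu0 : ((u i0 : ℤ) : ℂ) ≠ 0 := fun h => hχ1 (by rw [e1, h, mul_zero, mul_zero])
  have hV : (Fintype.card V : ℂ) ≠ 0 := fun h => hχ1 (by rw [e1, h, zero_mul, mul_zero])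
  -- independence of the point
  have hind : ∀ x : V, ∑ y ∈ C, ((u (ty x (y • x)) : ℤ) : ℂ) = ∑ y ∈ C, ((u (ty x0 (y • x0)) : ℤ) : ℂ) := by
    intro x
    obtain ⟨h, hh, -⟩ := htr x0 x0 x x (((h0 x0 x0).2 rfl).trans ((h0 x x).2 rfl).symm)
    symm
    refine Finset.sum_bij (fun y _ => h * y * h⁻¹) (fun y hy => ?_) (fun a _ b _ hab => ?_) (fun y hy => ?_)
      (fun y _ => ?_)
    · refine Finset.mem_filter.2 ⟨Finset.mem_univ _, (Finset.mem_filter.1 hy).2.trans (isConj_iff.2 ⟨h, rfl⟩)⟩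
    · exact mul_left_cancel (mul_right_cancel hab)
    · refine ⟨h⁻¹ * y * h, Finset.mem_filter.2 ⟨Finset.mem_univ _, (Finset.mem_filter.1 hy).2.trans
        (isConj_iff.2 ⟨h⁻¹, by rw [inv_inv]⟩)⟩, by group⟩
    · rw [← hh, ← hinv h x0 (y • x0)]
      congr 3
      rw [← mul_smul, ← mul_smul]
      congr 1
      group
  have e2 : (∑ y ∈ C, (1 : ℂ)) * (χ : G → ℂ) g = c0 * (Fintype.card V * ∑ y ∈ C, ((u (ty x0 (y • x0)) : ℤ) : ℂ)) := by
    have h2 : ∀ y ∈ C, (1 : ℂ) * (χ : G → ℂ) g = c0 * ∑ x, ((u (ty x (y • x)) : ℤ) : ℂ) := by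
      intro y hy
      rw [one_mul, ← hχ y]
      exact Blocks.Basic.irr_isConj χ.2 (Finset.mem_filter.1 hy).2
    rw [Finset.sum_mul, Finset.sum_congr rfl h2, ← Finset.mul_sum, Finset.sum_comm,
      Finset.sum_congr rfl fun x _ => hind x, Finset.sum_const, nsmul_eq_mul, Finset.card_univ]
  -- the numbers
  let f : V → ℕ := fun z => (C.filter fun y => y • x0 = z).card
  have hf : ∀ z z', ty x0 z = ty x0 z' → f z = f z' := by
    intro z z' hz
    obtain ⟨h, h1, h2⟩ := htr x0 z x0 z' hz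
    refine Finset.card_bij (fun y _ => h * y * h⁻¹) (fun y hy => ?_) (fun a _ b _ hab => ?_) (fun y hy => ?_)
    · obtain ⟨h3, h4⟩ := Finset.mem_filter.1 hy
      refine Finset.mem_filter.2 ⟨Finset.mem_filter.2 ⟨Finset.mem_univ _, (Finset.mem_filter.1 h3).2.trans
        (isConj_iff.2 ⟨h, rfl⟩)⟩, ?_⟩
      rw [← h2, ← h4, mul_smul, mul_smul]
      congr 2
      rw [inv_smul_eq_iff, h1]
    · exact mul_left_cancel (mul_right_cancel hab)
    · obtain ⟨h3, h4⟩ := Finset.mem_filter.1 hy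
      refine ⟨h⁻¹ * y * h, Finset.mem_filter.2 ⟨Finset.mem_filter.2 ⟨Finset.mem_univ _, (Finset.mem_filter.1 h3).2.trans
        (isConj_iff.2 ⟨h⁻¹, by rw [inv_inv]⟩)⟩, ?_⟩, by group⟩
      rw [mul_smul, mul_smul, h1, h4, inv_smul_eq_iff, h2]
  let n : Fin m → ℕ := fun i => if hi : ∃ z, ty x0 z = i then f hi.choose else 0
  have hn : ∀ z, f z = n (ty x0 z) := by
    intro z
    have hz : ∃ z', ty x0 z' = ty x0 z := ⟨z, rfl⟩
    show f z = if hi : ∃ z', ty x0 z' = ty x0 z then f hi.choose else 0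
    rw [dif_pos hz]
    exact hf _ _ hz.choose_spec.symm
  have hcount : ∀ F : V → ℂ, ∑ y ∈ C, F (y • x0) = ∑ z, (f z : ℂ) * F z := by
    intro F
    rw [← Finset.sum_fiberwise_of_maps_to (s := C) (t := Finset.univ) (g := fun y => y • x0)
      (fun _ _ => Finset.mem_univ _)]
    refine Finset.sum_congr rfl fun z _ => ?_
    have h2 : ∀ y ∈ C.filter (fun y => y • x0 = z), F (y • x0) = F z := by
      intro y hy
      rw [(Finset.mem_filter.1 hy).2]
    rw [Finset.sum_congr rfl h2, Finset.sum_const, nsmul_eq_mul]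
  have hgrp : ∀ F : Fin m → ℂ, ∑ z, (f z : ℂ) * F (ty x0 z) =
      ∑ i, ((Finset.univ.filter fun z => ty x0 z = i).card : ℂ) * ((n i : ℂ) * F i) := by
    intro F
    rw [← Finset.sum_fiberwise_of_maps_to (s := (Finset.univ : Finset V)) (t := Finset.univ) (g := fun z => ty x0 z)
      (fun _ _ => Finset.mem_univ _)]
    refine Finset.sum_congr rfl fun i _ => ?_
    have h2 : ∀ z ∈ (Finset.univ : Finset V).filter (fun z => ty x0 z = i), (f z : ℂ) * F (ty x0 z) = (n i : ℂ) * F i := by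
      intro z hz
      rw [hn z, (Finset.mem_filter.1 hz).2]
    rw [Finset.sum_congr rfl h2, Finset.sum_const, nsmul_eq_mul]
  have key : centralChar (fun _ : G => (1 : ℂ)) g - centralChar (χ : G → ℂ) g =
      ((((p : ℤ) * ∑ i, q i * n i : ℤ)) : ℂ) := by
    rw [Blocks.Basic.centralChar_def, Blocks.Basic.centralChar_def, hC, e2, mul_one, div_one, e1]
    have h2 : c0 * ((Fintype.card V : ℂ) * ∑ y ∈ C, ((u (ty x0 (y • x0)) : ℤ) : ℂ)) /
        (c0 * ((Fintype.card V : ℂ) * ((u i0 : ℤ) : ℂ))) = (∑ y ∈ C, ((u (ty x0 (y • x0)) : ℤ) : ℂ)) / ((u i0 : ℤ) : ℂ) := by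
      field_simp
    rw [h2, eq_comm, ← sub_eq_zero]
    have h3 : (∑ y ∈ C, (1 : ℂ)) * ((u i0 : ℤ) : ℂ) - ∑ y ∈ C, ((u (ty x0 (y • x0)) : ℤ) : ℂ) =
        ∑ i, ((Finset.univ.filter fun z => ty x0 z = i).card : ℂ) * ((n i : ℂ) * (((u i0 : ℤ) : ℂ) - ((u i : ℤ) : ℂ))) := by
      rw [← hgrp fun i => ((u i0 : ℤ) : ℂ) - ((u i : ℤ) : ℂ), ← hcount fun z => ((u i0 : ℤ) : ℂ) - ((u (ty x0 z) : ℤ) : ℂ),
        Finset.sum_sub_distrib, Finset.sum_mul]
      simp only [one_mul]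
    have h4 : ∀ i, ((Finset.univ.filter fun z => ty x0 z = i).card : ℂ) * ((n i : ℂ) * (((u i0 : ℤ) : ℂ) - ((u i : ℤ) : ℂ))) =
        (p : ℂ) * (q i * n i) * ((u i0 : ℤ) : ℂ) := by
      intro i
      have h5 := congrArg (Int.cast : ℤ → ℂ) (hq i)
      push_cast at h5
      linear_combination (n i : ℂ) * h5
    rw [Finset.sum_congr rfl fun i _ => h4 i, ← Finset.sum_mul, ← Finset.mul_sum] at h3
    push_cast
    have h6 : (∑ y ∈ C, ((u (ty x0 (y • x0)) : ℤ) : ℂ)) / ((u i0 : ℤ) : ℂ) =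
        (∑ y ∈ C, (1 : ℂ)) - (p : ℂ) * ∑ i, (q i : ℂ) * (n i : ℂ) := by
      rw [div_eq_iff hu0]
      linear_combination -h3
    rw [h6]
    ring
  show MemLocalIdeal M (centralChar (fun _ : G => (1 : ℂ)) g - centralChar (χ : G → ℂ) g)
  rw [key]
  exact memLocalIdeal_intCast hM (Dvd.intro _ rfl)

/-- the sizes of the colour classes -/
theorem card_balance {ty : V → V → Fin m} {K : Fin m → Fin m → ℤ} {i1 : Fin m}
    (h1 : ∀ x y, ty x y = i1 ↔ ty y x = i1)
    (hK : ∀ x z j, (((Finset.univ.filter fun y => ty x y = j ∧ ty z y = i1).card : ℕ) : ℤ) = K (ty x z) j) (x0 : V)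
    (i j : Fin m) : ((Finset.univ.filter fun z => ty x0 z = i).card : ℤ) * K i j =
      ((Finset.univ.filter fun z => ty x0 z = j).card : ℤ) * K j i := by
  classical
  have key : ∀ i j : Fin m, ((Finset.univ.filter fun z => ty x0 z = i).card : ℤ) * K i j =
      ∑ z : V, ∑ y : V, if ty x0 z = i ∧ ty x0 y = j ∧ ty z y = i1 then 1 else 0 := by
    intro i j
    have e1 : ∀ z : V, (∑ y : V, if ty x0 z = i ∧ ty x0 y = j ∧ ty z y = i1 then (1 : ℤ) else 0) =
        if ty x0 z = i then K i j else 0 := by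
      intro z
      by_cases hz : ty x0 z = i
      · rw [if_pos hz]
        simp only [hz, true_and]
        rw [Finset.sum_boole, hK, hz]
      · rw [if_neg hz]
        refine Finset.sum_eq_zero fun y _ => if_neg fun h => hz h.1
    rw [Finset.sum_congr rfl fun z _ => e1 z, ← Finset.sum_filter, Finset.sum_const, nsmul_eq_mul]
  rw [key i j, key j i, Finset.sum_comm]
  refine Finset.sum_congr rfl fun y _ => Finset.sum_congr rfl fun z _ => ?_
  congr 1
  rw [eq_iff_iff, h1 z y]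
  tauto

end scheme

end Cfsg.Agent.H136.CY
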